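import Mathlib

set_option autoImplicit false

namespace Cfsg.Agent.Lib.Helper7.PrimeIdx

/-- `Rel σ α a b`: some `k` sends `0` to `b` while `α k` sends `0` to `a`. -/
def Rel {p : ℕ} {G : Type*} [Group G] (σ : G →* Equiv.Perm (ZMod p)) (α : MulAut G)
    (a b : ZMod p) : Prop :=
  ∃ k : G, σ k 0 = b ∧ σ (α k) 0 = a

/-- number of middle points -/
noncomputable def cnt {p : ℕ} {G : Type*} [Group G] (σ : G →* Equiv.Perm (ZMod p))
    (α β : MulAut G) (a c : ZMod p) : ℕ :=
  Nat.card {b : ZMod p // Rel σ α a b ∧ Rel σ β b c}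

theorem pow_apply_mem {G : Type*} [Group G] (x : G) (α : MulAut G)
    (hα : α x ∈ Subgroup.zpowers x) (n : ℕ) : (α ^ n) x ∈ Subgroup.zpowers x := by
  induction n with
  | zero => simp
  | succ n ih =>
    obtain ⟨i, hi⟩ := hα
    obtain ⟨j, hj⟩ := ih
    rw [pow_succ, MulAut.mul_apply, ← hi, map_zpow, ← hj, ← zpow_mul]
    exact ⟨_, rfl⟩

/-- the automorphisms normalising `⟨x⟩` -/
def normAut {G : Type*} [Group G] [Finite G] (x : G) : Subgroup (MulAut G) where
  carrier := {α | α x ∈ Subgroup.zpowers x}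
  one_mem' := by simp
  mul_mem' := by
    intro α β hα hβ
    obtain ⟨i, hi⟩ := hα
    obtain ⟨j, hj⟩ := hβ
    change (α * β) x ∈ Subgroup.zpowers x
    rw [MulAut.mul_apply, ← hj, map_zpow, ← hi, ← zpow_mul]
    exact ⟨_, rfl⟩
  inv_mem' := by
    intro α hα
    change α⁻¹ x ∈ Subgroup.zpowers x
    have hfin : Finite (MulAut G) := Finite.of_injective (fun f : MulAut G => (f : G → G))
      (fun f g h => by ext y; exact congrFun h y)
    have h1 : α⁻¹ = α ^ (orderOf α - 1) := by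
      have hpos : 0 < orderOf α := orderOf_pos α
      rw [inv_eq_iff_mul_eq_one, ← pow_succ', Nat.sub_add_cancel hpos, pow_orderOf_eq_one]
    rw [h1]
    exact pow_apply_mem x α hα _

theorem mem_normAut {G : Type*} [Group G] [Finite G] (x : G) (α : MulAut G) :
    α ∈ normAut x ↔ α x ∈ Subgroup.zpowers x := Iff.rfl

/-- K1 -/
theorem rel_map {p : ℕ} {G : Type*} [Group G] (σ : G →* Equiv.Perm (ZMod p)) (α : MulAut G)
    (g : G) (a b : ZMod p) : Rel σ α (σ (α g) a) (σ g b) ↔ Rel σ α a b := by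
  constructor
  · rintro ⟨k, h1, h2⟩
    refine ⟨g⁻¹ * k, ?_, ?_⟩
    · rw [map_mul, Equiv.Perm.mul_apply, h1, map_inv]; simp
    · rw [map_mul, map_mul, Equiv.Perm.mul_apply, h2, map_inv, map_inv]; simp
  · rintro ⟨k, h1, h2⟩
    refine ⟨g * k, ?_, ?_⟩
    · rw [map_mul, Equiv.Perm.mul_apply, h1]
    · rw [map_mul, map_mul, Equiv.Perm.mul_apply, h2]

theorem shift_pow {p : ℕ} {G : Type*} [Group G] (σ : G →* Equiv.Perm (ZMod p))
    (x : G) (hx : ∀ i, σ x i = i + 1) (n : ℕ) (i : ZMod p) : σ (x ^ n) i = i + n := by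
  induction n with
  | zero => simp
  | succ n ih =>
    rw [pow_succ', map_mul, Equiv.Perm.mul_apply, ih, hx]
    push_cast
    ring

/-- K2 -/
theorem rel_shift {p : ℕ} [NeZero p] {G : Type*} [Group G] (σ : G →* Equiv.Perm (ZMod p))
    (α : MulAut G) (x : G) (hx : ∀ i, σ x i = i + 1) (hα : α x = x) (a b t : ZMod p) :
    Rel σ α (a + t) (b + t) ↔ Rel σ α a b := by
  have h := rel_map σ α (x ^ t.val) a b
  rw [map_pow, hα, shift_pow σ x hx, shift_pow σ x hx, ZMod.natCast_zmod_val] at h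
  exact h

/-- `Rel` only depends on the difference. -/
theorem rel_iff_sub {p : ℕ} [NeZero p] {G : Type*} [Group G] (σ : G →* Equiv.Perm (ZMod p))
    (α : MulAut G) (x : G) (hx : ∀ i, σ x i = i + 1) (hα : α x = x) (a b : ZMod p) :
    Rel σ α a b ↔ Rel σ α (a - b) 0 := by
  have h := rel_shift σ α x hx hα (a - b) 0 b
  rw [sub_add_cancel, zero_add] at h
  exact h

end Cfsg.Agent.Lib.Helper7.PrimeIdx
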