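import Cfsg.Agent.Lib.Helper7.PrimeIdx.Defs
import Cfsg.Agent.Lib.Helper62.PrimeIdx.K345
import Cfsg.Agent.Lib.Helper62.PrimeIdx.K6
import Cfsg.Agent.Lib.Helper62.PrimeIdx.K7
import Cfsg.Agent.Lib.Helper62.PrimeIdx.K8
import Cfsg.Agent.Lib.Helper74.PrimeIdx.S1
import Cfsg.Agent.Lib.Helper74.PrimeIdx.S2F1
import Cfsg.Agent.Lib.Helper74.PrimeIdx.F2

set_option autoImplicit false

namespace Cfsg.Agent.Lib.Helper7.PrimeIdx

open Cfsg.Agent.Lib.Helper62.PrimeIdx Cfsg.Agent.Lib.Helper74.PrimeIdx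

/-- CORE: automorphisms fixing `x` commute. -/
theorem core {p : ℕ} [Fact p.Prime] {G : Type*} [Group G] [Finite G]
    (σ : G →* Equiv.Perm (ZMod p)) (hσ : Function.Injective σ) (x : G)
    (hx : ∀ i, σ x i = i + 1) (hp2 : ¬ p ^ 2 ∣ Nat.card G)
    (α β : MulAut G) (hα : α x = x) (hβ : β x = x) : α * β = β * α := by
  have : NeZero p := ⟨(Fact.out : p.Prime).ne_zero⟩
  ext g
  apply hσ
  ext a
  simp only [MulAut.mul_apply]
  by_contra hne
  set u := σ (α (β g)) a with hu
  set v := σ (β (α g)) a with hv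
  have hrow : ∀ c, cnt σ α β u c = cnt σ α β v c := by
    intro c
    obtain ⟨c', rfl⟩ := (σ g).surjective c
    rw [hu, cnt_map, cnt_comm σ α β x hx hα hβ, cnt_comm σ α β x hx hα hβ v, hv, cnt_map]
  have hper : ∀ t, cnt σ α β (t + (u - v)) 0 = cnt σ α β t 0 := by
    intro t
    have h1 := hrow (v - t)
    have h2 := cnt_shift σ α β x hx hα hβ (t + (u - v)) 0 (v - t)
    have h3 := cnt_shift σ α β x hx hα hβ t 0 (v - t)
    have e1 : t + (u - v) + (v - t) = u := by ring
    have e2 : t + (v - t) = v := by ring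
    rw [e1, zero_add] at h2
    rw [e2, zero_add] at h3
    rw [← h2, ← h3, h1]
  have hdvd := dvd_sum_of_period (fun t => cnt σ α β t 0) (u - v) (sub_ne_zero.mpr hne) hper
  rw [sum_cnt σ α β x hx hα hβ] at hdvd
  rcases (Nat.Prime.dvd_mul (Fact.out : p.Prime)).mp hdvd with h | h
  · exact card_block σ α x hx hp2 h
  · exact card_block σ β x hx hp2 h

theorem out_solvable {G : Type*} [Group G] [Finite G] (p : ℕ) [Fact p.Prime] (x : G)
    (hx : orderOf x = p) (hp2 : ¬ p ^ 2 ∣ Nat.card G)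
    (hcomm : ∀ α β : MulAut G, α x = x → β x = x → α * β = β * α)
    (I : Subgroup (MulAut G)) [I.Normal] (hI : (MulAut.conj : G →* MulAut G).range ≤ I) :
    Group.IsSolvable (MulAut G ⧸ I) := by
  have := normAut_solvable x hcomm
  refine Group.isSolvable_of_surjective (f := (QuotientGroup.mk' I).comp (normAut x).subtype) ?_
  intro q
  obtain ⟨α, rfl⟩ := QuotientGroup.mk_surjective q
  obtain ⟨g, hg⟩ := frattini p x hx hp2 α
  refine ⟨⟨α * MulAut.conj g, hg⟩, ?_⟩
  simp only [MonoidHom.coe_comp, Function.comp_apply, Subgroup.coe_subtype, QuotientGroup.mk'_apply]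
  rw [QuotientGroup.eq]
  have : (α * MulAut.conj g)⁻¹ * α = (MulAut.conj g)⁻¹ := by group
  rw [this]
  exact I.inv_mem (hI ⟨g, rfl⟩)

/-- A finite simple group with a subgroup of prime index has solvable outer automorphism group. -/
theorem main {G : Type*} [Group G] [Finite G] [IsSimpleGroup G] (H : Subgroup G)
    (hH : H.index.Prime) (I : Subgroup (MulAut G)) [I.Normal]
    (hI : (MulAut.conj : G →* MulAut G).range ≤ I) : Group.IsSolvable (MulAut G ⧸ I) := by
  have : Fact H.index.Prime := ⟨hH⟩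
  obtain ⟨σ, x, hσ, hx, hp2⟩ := setup H H.index rfl
  exact out_solvable H.index x (orderOf_of_shift σ hσ x hx) hp2
    (fun α β hα hβ => core σ hσ x hx hp2 α β hα hβ) I hI

end Cfsg.Agent.Lib.Helper7.PrimeIdx
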